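import Cfsg.Agent.Eq.Def_Characters
import Cfsg.Agent.Eq.Def_Blocks
import Cfsg.Agent.Eq.Def_BlockRank
import Cfsg.Agent.Blocks.Orth.Blocks
import Cfsg.Agent.Chars.Basic

/-!
# Real characters of odd degree at the prime 2

* `sum_regular_ne_zero`: a character of odd degree, real modulo `M`, has nonzero sum over the
  2-regular elements;
* `mem_principalBlock_of_odd_real`: hence it lies in the principal 2-block.
-/

set_option autoImplicit false

namespace CfsgLib.Chars.Apps

open CfsgLib.Chars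
open scoped ComplexConjugate

/-- A character of odd degree, real modulo `M`, has nonzero sum over the 2-regular elements. -/
theorem sum_regular_ne_zero {G : Type*} [Group G] [Fintype G]
    [DecidablePred fun g : G => Cfsg.IsPRegular 2 g] (M : Ideal Cfsg.AlgInt)
    (hM : Cfsg.IsPModular 2 M) (η : Cfsg.IrrCharacter G)
    (hodd : Odd (Cfsg.charDegree (η : G → ℂ)))
    (hreal : ∀ g : G, ∀ a b : Cfsg.AlgInt, (a : ℂ) = (η : G → ℂ) g → (b : ℂ) = (η : G → ℂ) g⁻¹ →
      Ideal.Quotient.mk M a = Ideal.Quotient.mk M b) :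
    ∑ g ∈ Finset.univ.filter (fun g : G => Cfsg.IsPRegular 2 g), (η : G → ℂ) g ≠ 0 := by
  classical
  haveI : M.IsMaximal := hM.2.1
  intro h1
  let f : G → Cfsg.AlgInt := fun g => ⟨(η : G → ℂ) g, isIntegral_apply (isCharacter_coe η) g⟩
  set S := Finset.univ.filter (fun g : G => Cfsg.IsPRegular 2 g) with hS
  have hsum : (∑ g ∈ S, f g : Cfsg.AlgInt) = 0 := by
    apply Subtype.val_injective
    rw [AddSubmonoidClass.coe_finsetSum, ZeroMemClass.coe_zero]
    exact h1
  have h1S : (1 : G) ∈ S := by simp [hS, Cfsg.IsPRegular]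
  have hpair : ∑ g ∈ S.erase 1, Ideal.Quotient.mk M (f g) = 0 := by
    refine Finset.sum_involution (fun g _ => g⁻¹) (fun g hg => ?_) (fun g hg _ => ?_) (fun g hg => ?_)
      (fun g _ => inv_inv g)
    · rw [← hreal g (f g) (f g⁻¹) rfl rfl, ← two_mul]
      have : (2 : Cfsg.AlgInt ⧸ M) = 0 := by
        have := Ideal.Quotient.eq_zero_iff_mem.mpr hM.2.2
        rwa [map_natCast, Nat.cast_ofNat] at this
      rw [this, zero_mul]
    · intro h
      obtain ⟨hne, hgS⟩ := Finset.mem_erase.mp hg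
      have hreg : ¬ 2 ∣ orderOf g := (Finset.mem_filter.mp hgS).2
      have h2 : g ^ 2 = 1 := by rw [pow_two]; nth_rw 2 [← h]; exact mul_inv_cancel g
      rcases (Nat.dvd_prime Nat.prime_two).mp (orderOf_dvd_of_pow_eq_one h2) with h3 | h3
      · exact hne (orderOf_eq_one_iff.mp h3)
      · exact hreg (h3 ▸ dvd_rfl)
    · obtain ⟨hne, hgS⟩ := Finset.mem_erase.mp hg
      refine Finset.mem_erase.mpr ⟨by simpa using hne, ?_⟩
      simpa [hS, Cfsg.IsPRegular] using (Finset.mem_filter.mp hgS).2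
  have h1 : Ideal.Quotient.mk M (f 1) = 0 := by
    have := congrArg (Ideal.Quotient.mk M) hsum
    rw [map_sum, map_zero, ← Finset.add_sum_erase _ _ h1S, hpair, add_zero] at this
    exact this
  obtain ⟨d, hd⟩ := hodd
  have hf1 : f 1 = ((2 * d + 1 : ℕ) : Cfsg.AlgInt) := by
    apply Subtype.val_injective
    show (η : G → ℂ) 1 = _
    rw [← coe_charDegree η, hd]
    push_cast
    rfl
  rw [hf1, map_natCast] at h1
  have : (2 : Cfsg.AlgInt ⧸ M) = 0 := by
    have := Ideal.Quotient.eq_zero_iff_mem.mpr hM.2.2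
    rwa [map_natCast, Nat.cast_ofNat] at this
  push_cast at h1
  rw [this, zero_mul, zero_add] at h1
  exact one_ne_zero h1

/-- **Gow**: a real-valued irreducible character of odd degree lies in the principal 2-block. -/
theorem mem_principalBlock_of_odd_real {G : Type*} [Group G] [Finite G] (M : Ideal Cfsg.AlgInt)
    (hM : Cfsg.IsPModular 2 M) (η : Cfsg.IrrCharacter G)
    (hodd : Odd (Cfsg.charDegree (η : G → ℂ))) (hreal : ∀ g : G, ((η : G → ℂ) g).im = 0) :
    η ∈ Cfsg.principalBlock M G := by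
  classical
  haveI := Fintype.ofFinite G
  by_contra hη
  have hB : Cfsg.IsPBlock M (Cfsg.principalBlock M G) := ⟨⟨_, isIrrCharacter_one⟩, rfl⟩
  haveI : M.IsMaximal := hM.2.1
  have hone : (⟨_, isIrrCharacter_one⟩ : Cfsg.IrrCharacter G) ∈ Cfsg.principalBlock M G :=
    CfsgLib.Blocks.sameBlock_refl _
  have h0 := CfsgLib.Blocks.classInner_pRegularPart_eq_zero hM hB hone hη
  refine sum_regular_ne_zero M hM η hodd (fun g a b ha hb => ?_) ?_
  · congr 1
    apply Subtype.val_injective
    show (a : ℂ) = b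
    rw [ha, hb, map_inv_eq_conj (isCharacter_coe η), Complex.conj_eq_iff_im.mpr (hreal g)]
  · rw [Cfsg.classInner] at h0
    have h1 := (mul_eq_zero.mp h0).resolve_left
      (inv_ne_zero (Nat.cast_ne_zero.mpr Nat.card_pos.ne'))
    simp only [Cfsg.pRegularPart, map_one, mul_one] at h1
    rw [← Finset.sum_filter] at h1
    exact h1

end CfsgLib.Chars.Apps
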